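import Cfsg.Agent.Lib.Helper17.E6I.DefsE
import Cfsg.Agent.Lib.Helper18.ChevOrder

/-!
# E6I piece E8 (helper56, backup for the farm of helper17): the cascade of orthogonal roots of `E₆`
-/

set_option autoImplicit false

namespace Cfsg.Agent.Lib.Helper56.E6I

open Cfsg.Lie Cfsg.Agent.Lib.Helper18 Cfsg.Agent.Lib.Helper17 Cfsg.Agent.Lib.Helper36
  Cfsg.Agent.Lib.Helper6 Matrix Cfsg.Agent.Lib.Helper17.E6I

namespace E8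

def w1 : List (List ℕ) := [[1, 3, 2, 0, 4, 3, 1, 2, 3, 4, 5, 4, 3, 1, 2, 0, 3, 2, 4, 3, 1], [1, 3, 2, 0, 4, 3, 1, 2, 3, 4, 5, 4, 3, 1, 2, 0, 3, 2, 4, 3], [1, 3, 2, 0, 4, 3, 1, 2, 3, 4, 5, 4, 3, 1, 2, 0, 3, 2, 4], [1, 3, 2, 0, 4, 3, 1, 2, 3, 4, 5, 4, 3, 1, 2, 0, 3, 2], [1, 3, 2, 0, 4, 3, 1, 2, 3, 5, 4, 3, 1, 2, 0, 3, 2], [1, 3, 2, 0, 4, 3, 1, 2, 3, 4, 5, 4, 3, 1, 2, 0, 3, 4], [1, 3, 2, 0, 4, 3, 1, 2, 3, 4, 5, 4, 3, 1, 2, 0, 3], [1, 3, 2, 0, 4, 3, 1, 2, 3, 5, 4, 3, 1, 2, 0, 3], [1, 3, 2, 0, 4, 3, 1, 2, 3, 4, 5, 4, 3, 1, 2, 0], [1, 3, 2, 0, 4, 3, 1, 2, 3, 5, 4, 3, 1, 2, 0], [1, 3, 2, 0, 4, 3, 1, 2, 5, 4, 3, 1, 2, 0], [1, 3, 2, 0, 4, 3, 1, 2, 3, 4, 5, 4, 3, 2, 0], [1, 3, 2, 0, 4, 3, 1, 2, 3, 5, 4, 3, 2, 0], [1, 3, 2, 0, 4, 3, 1, 2, 5, 4, 3, 2, 0], [1, 3, 2, 0, 4, 3, 1, 5, 4, 3, 2, 0], [1, 3, 2, 4, 3, 1, 5, 4, 3,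 2, 0], [1, 3, 2, 0, 4, 3, 1, 2, 3, 4, 5, 4, 3, 1, 2, 3, 4], [1, 3, 2, 0, 4, 3, 1, 2, 3, 4, 5, 4, 3, 1, 2, 3], [1, 3, 2, 0, 4, 3, 1, 2, 3, 5, 4, 3, 1, 2, 3], [1, 3, 2, 0, 4, 3, 1, 2, 3, 4, 5, 4, 3, 1, 2], [1, 3, 2, 0, 4, 3, 1, 2, 3, 5, 4, 3, 1, 2], [1, 3, 2, 0, 4, 3, 1, 2, 5, 4, 3, 1, 2], [1, 3, 2, 0, 4, 3, 1, 2, 3, 4, 5, 4, 3, 1], [1, 3, 2, 0, 4, 3, 1, 2, 3, 5, 4, 3, 1], [1, 3, 2, 0, 4, 3, 1, 2, 5, 4, 3, 1], [1, 3, 2, 0, 4, 3, 2, 5, 4, 3, 1], [1, 3, 2, 0, 4, 3, 1, 2, 3, 4, 5, 4, 3, 2], [1, 3, 2, 0, 4, 3, 1, 2, 3, 5, 4, 3, 2], [1, 3, 2, 0, 4, 3, 1, 2, 5, 4, 3, 2], [1, 3, 2, 0, 4, 3, 1, 5, 4, 3, 2], [1, 3, 2, 0, 4, 3, 1, 2, 3, 4, 5, 4, 3], [1, 3, 2, 0, 4, 3, 1, 2, 3, 5, 4, 3], [1, 3, 2, 0, 4, 3, 1, 2, 5, 4, 3], [1, 3, 2, 0, 4, 3, 1, 2, 3, 4, 5, 4], [1, 3, 2, 0, 4, 3, 1, 2, 3, 5, 4], [1, 3, 2, 0, 4, 3, 1, 2, 3, 4,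 5], [1, 3, 2, 0, 4, 3, 1, 2, 3, 4], [1, 3, 2, 0, 4, 3, 1, 2, 3, 5], [1, 3, 2, 0, 4, 3, 1, 2, 3], [1, 3, 2, 0, 4, 3, 1, 2, 5, 4], [1, 3, 2, 0, 4, 3, 1, 2, 5], [1, 3, 2, 0, 4, 3, 1, 2], [1, 3, 2, 0, 4, 3, 1, 5, 4, 3], [1, 3, 2, 0, 4, 3, 1, 5, 4], [1, 3, 2, 0, 4, 3, 1, 5], [1, 3, 2, 0, 4, 3, 1], [1, 3, 2, 0, 4, 3, 2, 5, 4, 3], [1, 3, 2, 0, 4, 3, 2, 5, 4], [1, 3, 2, 0, 4, 3, 2, 5], [1, 3, 2, 0, 4, 3, 2], [1, 3, 2, 0, 4, 3, 5, 4], [1, 3, 2, 0, 4, 3, 5], [1, 3, 2, 0, 4, 3], [1, 3, 2, 0, 4, 5], [1, 3, 2, 0, 4], [1, 3, 2, 0], [1, 3, 2, 4, 3, 1, 5, 4, 3, 2], [1, 3, 2, 4, 3, 1, 5, 4, 3], [1, 3, 2, 4, 3, 1, 5, 4], [1, 3, 2, 4, 3, 1, 5], [1, 3, 2, 4, 3, 1], [1, 3, 2, 4, 3, 5, 4], [1, 3, 2, 4, 3, 5], [1, 3, 2, 4, 3], [1, 3, 2, 4, 5], [1, 3, 2, 4], [1, 3, 2], [1, 3, 4, 5], [1, 3, 4], [1, 3], [1], []]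
def w2 : List (List ℕ) := [[], [], [], [], [], [], [], [], [], [], [], [0, 2, 3, 4, 5, 4, 3, 2, 0], [0, 2, 3, 5, 4, 3, 2, 0], [0, 2, 5, 4, 3, 2, 0], [0, 5, 4, 3, 2, 0], [5, 4, 3, 2, 0], [], [], [], [], [], [], [], [], [], [], [0, 2, 3, 4, 5, 4, 3, 2], [0, 2, 3, 5, 4, 3, 2], [0, 2, 5, 4, 3, 2], [0, 5, 4, 3, 2], [0, 2, 3, 4, 5, 4, 3], [0, 2, 3, 5, 4, 3], [0, 2, 5, 4, 3], [0, 2, 3, 4, 5, 4], [0, 2, 3, 5, 4], [0, 2, 3, 4, 5], [0, 2, 3, 4], [0, 2, 3, 5], [0, 2, 3], [0, 2, 5, 4], [0, 2, 5], [0, 2], [0, 5, 4, 3], [0, 5, 4], [0, 5], [0], [], [], [], [], [], [], [], [], [], [], [5, 4, 3, 2], [5, 4, 3], [5, 4], [5], [], [], [], [], [], [], [], [], [], [], [], []]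
def w3 : List (List ℕ) := [[], [], [], [], [], [], [], [], [], [], [], [], [], [], [], [], [], [], [], [], [], [], [], [], [], [], [], [2, 3, 4, 3, 2], [2, 4, 3, 2], [4, 3, 2], [], [2, 3, 4, 3], [2, 4, 3], [], [2, 3, 4], [], [], [2, 3], [], [2, 4], [2], [], [4, 3], [4], [], [], [], [], [], [], [], [], [], [], [], [], [], [], [], [], [], [], [], [], [], [], [], [], [], [], [], []]
def w4 : List (List ℕ) := [[], [], [], [], [], [], [], [], [], [], [], [], [], [], [], [], [], [], [], [], [], [], [], [], [], [], [], [], [], [], [], [], [3], [], [], [], [], [], [], [], [], [], [], [], [], [], [], [], [], [], [], [], [], [], [], [], [], [], [], [], [], [], [], [], [], [], [], [], [], [], [], []]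
def M2 : List ℕ := [4, 3, 1]
def M3 : List ℕ := [0, 2, 3, 1, 0]
def M4 : List ℕ := [5, 4, 3, 0, 2, 1, 3, 4, 5, 3, 2, 1, 3, 4, 3, 1]

theorem T1 : ∀ r : Fin 72, (∀ i ∈ w1.getD r [], i < 6) ∧ wAct chevE6 (w1.getD r []) r = 71 := by
  decide +kernel

theorem T2 : ∀ r : Fin 72, chevE6.pairing 71 r = 0 → (∀ i ∈ w2.getD r [], i < 6) ∧
    wAct chevE6 (w2.getD r []) r = 60 ∧ wAct chevE6 (w2.getD r []) 71 = 71 := by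
  decide +kernel

theorem T3 : ∀ r : Fin 72, chevE6.pairing 71 r = 0 → chevE6.pairing 60 r = 0 →
    (∀ i ∈ w3.getD r [], i < 6) ∧
    wAct chevE6 (w3.getD r []) r = 44 ∧ wAct chevE6 (w3.getD r []) 71 = 71 ∧
    wAct chevE6 (w3.getD r []) 60 = 60 := by
  decide +kernel

theorem T4 : ∀ r : Fin 72, chevE6.pairing 71 r = 0 → chevE6.pairing 60 r = 0 →
    chevE6.pairing 44 r = 0 → (∀ i ∈ w4.getD r [], i < 6) ∧
    wAct chevE6 (w4.getD r []) r = 39 ∧ wAct chevE6 (w4.getD r []) 71 = 71 ∧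
    wAct chevE6 (w4.getD r []) 60 = 60 ∧ wAct chevE6 (w4.getD r []) 44 = 44 := by
  decide +kernel

theorem T5 : ∀ r : Fin 72, chevE6.pairing 71 r = 0 → chevE6.pairing 60 r = 0 →
    chevE6.pairing 44 r = 0 → chevE6.pairing 39 r = 0 → False := by
  decide +kernel

theorem TM2 : (∀ i ∈ M2, i < 6) ∧ wAct chevE6 M2 71 = 68 ∧ wAct chevE6 M2 60 = 66 := by
  decide +kernel

theorem TM3 : (∀ i ∈ M3, i < 6) ∧ wAct chevE6 M3 71 = 55 ∧ wAct chevE6 M3 60 = 65 ∧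
    wAct chevE6 M3 44 = 67 := by
  decide +kernel

theorem TM4 : (∀ i ∈ M4, i < 6) ∧ wAct chevE6 M4 71 = 42 ∧ wAct chevE6 M4 60 = 53 ∧
    wAct chevE6 M4 44 = 37 ∧ wAct chevE6 M4 39 = 46 := by
  decide +kernel

theorem T1' (r : ℕ) (hr : r < 72) : ∃ L : List ℕ, (∀ i ∈ L, i < 6) ∧ wAct chevE6 L r = 71 :=
  ⟨_, T1 ⟨r, hr⟩⟩

theorem T2' (r : ℕ) (hr : r < 72) (h1 : chevE6.pairing 71 r = 0) :
    ∃ L : List ℕ, (∀ i ∈ L, i < 6) ∧ wAct chevE6 L r = 60 ∧ wAct chevE6 L 71 = 71 :=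
  ⟨_, T2 ⟨r, hr⟩ h1⟩

theorem T3' (r : ℕ) (hr : r < 72) (h1 : chevE6.pairing 71 r = 0) (h2 : chevE6.pairing 60 r = 0) :
    ∃ L : List ℕ, (∀ i ∈ L, i < 6) ∧ wAct chevE6 L r = 44 ∧ wAct chevE6 L 71 = 71 ∧
      wAct chevE6 L 60 = 60 :=
  ⟨_, T3 ⟨r, hr⟩ h1 h2⟩

theorem T4' (r : ℕ) (hr : r < 72) (h1 : chevE6.pairing 71 r = 0) (h2 : chevE6.pairing 60 r = 0)
    (h3 : chevE6.pairing 44 r = 0) :
    ∃ L : List ℕ, (∀ i ∈ L, i < 6) ∧ wAct chevE6 L r = 39 ∧ wAct chevE6 L 71 = 71 ∧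
      wAct chevE6 L 60 = 60 ∧ wAct chevE6 L 44 = 44 :=
  ⟨_, T4 ⟨r, hr⟩ h1 h2 h3⟩

theorem T5' (r : ℕ) (hr : r < 72) (h1 : chevE6.pairing 71 r = 0) (h2 : chevE6.pairing 60 r = 0)
    (h3 : chevE6.pairing 44 r = 0) (h4 : chevE6.pairing 39 r = 0) : False :=
  T5 ⟨r, hr⟩ h1 h2 h3 h4

theorem app_lt {L L' : List ℕ} (h : ∀ i ∈ L, i < 6) (h' : ∀ i ∈ L', i < 6) :
    ∀ i ∈ L ++ L', i < 6 := by
  intro i hi
  rcases List.mem_append.1 hi with h1 | h1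
  · exact h i h1
  · exact h' i h1

end E8

open E8 in
/-- [E8] the cascade. -/
theorem cascade (O : List ℕ) (hO : O.Pairwise e6orth) (hb : ∀ o ∈ O, o < 72) (hne : O ≠ []) :
    ∃ L : List ℕ, (∀ i ∈ L, i < 6) ∧
      ((O.map (wAct chevE6 L)).Perm [71] ∨ (O.map (wAct chevE6 L)).Perm [68, 66] ∨
        (O.map (wAct chevE6 L)).Perm [55, 65, 67] ∨ (O.map (wAct chevE6 L)).Perm [42, 53, 37, 46]) := by
  have hT : Tab chevE6 := (tabs2_of_mem (D := chevE6) (by simp)).tab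
  have hP : PairTab chevE6 := pairTab_of_mem (D := chevE6) (by simp)
  have pres : ∀ (L : List ℕ), (∀ i ∈ L, i < 6) → ∀ x y, x < 72 → y < 72 →
      chevE6.pairing (wAct chevE6 L x) (wAct chevE6 L y) = chevE6.pairing x y :=
    fun L hL x y hx hy => hP.wAct hT hL hx hy
  have lt : ∀ (L : List ℕ), (∀ i ∈ L, i < 6) → ∀ x, x < 72 → wAct chevE6 L x < 72 :=
    fun L hL x hx => hT.wAct_lt hL hx
  rcases O with _ | ⟨a, O⟩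
  · exact absurd rfl hne
  have ha : a < 72 := hb a (by simp)
  obtain ⟨L1, hL1, e1⟩ := T1' a ha
  rcases O with _ | ⟨b, O⟩
  · refine ⟨L1, hL1, Or.inl ?_⟩
    have : [a].map (wAct chevE6 L1) = [71] := by
      simp only [List.map_cons, List.map_nil, e1]
    rw [this]
  have hb' : b < 72 := hb b (by simp)
  have hab : chevE6.pairing a b = 0 := (List.pairwise_cons.1 hO).1 b (by simp)
  have p1 : chevE6.pairing 71 (wAct chevE6 L1 b) = 0 := by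
    rw [← e1, pres L1 hL1 a b ha hb', hab]
  obtain ⟨L2, hL2, e2, f2⟩ := T2' _ (lt L1 hL1 b hb') p1
  have hK2 := app_lt hL2 hL1
  have ka2 : wAct chevE6 (L2 ++ L1) a = 71 := by rw [wAct_append, e1, f2]
  have kb2 : wAct chevE6 (L2 ++ L1) b = 60 := by rw [wAct_append, e2]
  rcases O with _ | ⟨c, O⟩
  · refine ⟨M2 ++ (L2 ++ L1), app_lt TM2.1 hK2, Or.inr (Or.inl ?_)⟩
    have : [a, b].map (wAct chevE6 (M2 ++ (L2 ++ L1))) = [68, 66] := by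
      simp only [List.map_cons, List.map_nil, wAct_append M2, ka2, kb2, TM2.2.1, TM2.2.2]
    rw [this]
  have hc : c < 72 := hb c (by simp)
  have hac : chevE6.pairing a c = 0 := (List.pairwise_cons.1 hO).1 c (by simp)
  have hO2 := (List.pairwise_cons.1 hO).2
  have hbc : chevE6.pairing b c = 0 := (List.pairwise_cons.1 hO2).1 c (by simp)
  have q1 : chevE6.pairing 71 (wAct chevE6 (L2 ++ L1) c) = 0 := by
    rw [← ka2, pres _ hK2 a c ha hc, hac]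
  have q2 : chevE6.pairing 60 (wAct chevE6 (L2 ++ L1) c) = 0 := by
    rw [← kb2, pres _ hK2 b c hb' hc, hbc]
  obtain ⟨L3, hL3, e3, f3, g3⟩ := T3' _ (lt _ hK2 c hc) q1 q2
  have hK3 := app_lt hL3 hK2
  have ka3 : wAct chevE6 (L3 ++ (L2 ++ L1)) a = 71 := by rw [wAct_append, ka2, f3]
  have kb3 : wAct chevE6 (L3 ++ (L2 ++ L1)) b = 60 := by rw [wAct_append, kb2, g3]
  have kc3 : wAct chevE6 (L3 ++ (L2 ++ L1)) c = 44 := by rw [wAct_append, e3]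
  rcases O with _ | ⟨d, O⟩
  · refine ⟨M3 ++ (L3 ++ (L2 ++ L1)), app_lt TM3.1 hK3, Or.inr (Or.inr (Or.inl ?_))⟩
    have : [a, b, c].map (wAct chevE6 (M3 ++ (L3 ++ (L2 ++ L1)))) = [55, 65, 67] := by
      simp only [List.map_cons, List.map_nil, wAct_append M3, ka3, kb3, kc3, TM3.2.1, TM3.2.2.1,
        TM3.2.2.2]
    rw [this]
  have hd : d < 72 := hb d (by simp)
  have had : chevE6.pairing a d = 0 := (List.pairwise_cons.1 hO).1 d (by simp)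
  have hbd : chevE6.pairing b d = 0 := (List.pairwise_cons.1 hO2).1 d (by simp)
  have hO3 := (List.pairwise_cons.1 hO2).2
  have hcd : chevE6.pairing c d = 0 := (List.pairwise_cons.1 hO3).1 d (by simp)
  have r1 : chevE6.pairing 71 (wAct chevE6 (L3 ++ (L2 ++ L1)) d) = 0 := by
    rw [← ka3, pres _ hK3 a d ha hd, had]
  have r2 : chevE6.pairing 60 (wAct chevE6 (L3 ++ (L2 ++ L1)) d) = 0 := by
    rw [← kb3, pres _ hK3 b d hb' hd, hbd]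
  have r3 : chevE6.pairing 44 (wAct chevE6 (L3 ++ (L2 ++ L1)) d) = 0 := by
    rw [← kc3, pres _ hK3 c d hc hd, hcd]
  obtain ⟨L4, hL4, e4, f4, g4, h4⟩ := T4' _ (lt _ hK3 d hd) r1 r2 r3
  have hK4 := app_lt hL4 hK3
  have ka4 : wAct chevE6 (L4 ++ (L3 ++ (L2 ++ L1))) a = 71 := by rw [wAct_append, ka3, f4]
  have kb4 : wAct chevE6 (L4 ++ (L3 ++ (L2 ++ L1))) b = 60 := by rw [wAct_append, kb3, g4]
  have kc4 : wAct chevE6 (L4 ++ (L3 ++ (L2 ++ L1))) c = 44 := by rw [wAct_append, kc3, h4]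
  have kd4 : wAct chevE6 (L4 ++ (L3 ++ (L2 ++ L1))) d = 39 := by rw [wAct_append, e4]
  rcases O with _ | ⟨e, O⟩
  · refine ⟨M4 ++ (L4 ++ (L3 ++ (L2 ++ L1))), app_lt TM4.1 hK4, Or.inr (Or.inr (Or.inr ?_))⟩
    have : [a, b, c, d].map (wAct chevE6 (M4 ++ (L4 ++ (L3 ++ (L2 ++ L1))))) = [42, 53, 37, 46] := by
      simp only [List.map_cons, List.map_nil, wAct_append M4, ka4, kb4, kc4, kd4, TM4.2.1,
        TM4.2.2.1, TM4.2.2.2.1, TM4.2.2.2.2]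
    rw [this]
  exfalso
  have he : e < 72 := hb e (by simp)
  have hae : chevE6.pairing a e = 0 := (List.pairwise_cons.1 hO).1 e (by simp)
  have hbe : chevE6.pairing b e = 0 := (List.pairwise_cons.1 hO2).1 e (by simp)
  have hce : chevE6.pairing c e = 0 := (List.pairwise_cons.1 hO3).1 e (by simp)
  have hO4 := (List.pairwise_cons.1 hO3).2
  have hde : chevE6.pairing d e = 0 := (List.pairwise_cons.1 hO4).1 e (by simp)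
  refine T5' _ (lt _ hK4 e he) ?_ ?_ ?_ ?_
  · rw [← ka4, pres _ hK4 a e ha he, hae]
  · rw [← kb4, pres _ hK4 b e hb' he, hbe]
  · rw [← kc4, pres _ hK4 c e hc he, hce]
  · rw [← kd4, pres _ hK4 d e hd he, hde]

end Cfsg.Agent.Lib.Helper56.E6I
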